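import Mathlib
import Cfsg.Agent.Lib.TcPres
import Cfsg.Agent.Lib.OJ1Pres

set_option autoImplicit false

namespace Cfsg.Agent.TcData.OJ1Q

open Cfsg.Spor Cfsg.Agent.Lib.TcFacts Cfsg.Agent.Lib.TcBits Cfsg.Agent.Lib.TcPres Cfsg.Agent.Lib.OJ1Pres

/-- The relators of the presentation. -/
abbrev RR : Set (FreeGroup Gen) := coxRelators edges ∪ {r | r ∈ extra}

/-- The letter of a signed generator. -/
def enc : Gen → Bool → ℕ
  | .x, true => 0
  | .x, false => 1
  | .y, true => 2
  | .y, false => 3

/-- The letters. -/
noncomputable def gL : List (FreeGroup Gen) :=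
  [FreeGroup.of .x, (FreeGroup.of .x)⁻¹, FreeGroup.of .y, (FreeGroup.of .y)⁻¹]

/-- The nodes of the graph. -/
def nodesL : List Gen := []

/-- The generators. -/
def gensL : List Gen := [.x, .y]

/-- All relators, as a list. -/
noncomputable def relL : List (FreeGroup Gen) := relAll edges nodesL extra

theorem hrel : ∀ r ∈ relL, PresentedGroup.mk RR r = 1 := relAll_spec (by decide)

theorem hnodes : ∀ x ∈ coxNodes edges, x ∈ nodesL := by decide

theorem hL : ∀ x b, enc x b < 4 := by
  intro x b; cases x <;> cases b <;> decide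

theorem hlen : 4 = gL.length := rfl

theorem hℓ (macros : List (FreeGroup Gen)) : ∀ x b, letter RR gL macros (enc x b) =
    cond b (PresentedGroup.of x) (PresentedGroup.of x)⁻¹ := by
  intro x b
  cases x <;> cases b <;>
    first
      | rfl
      | exact map_inv _ _
      | exact (inv_of_node (by decide)).symm

end Cfsg.Agent.TcData.OJ1Q
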